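import Mathlib
import Cfsg.Agent.Lib.Helper40.OTSP.Defs
import Cfsg.Agent.Lib.Helper99.Quad3
import Cfsg.Agent.Lib.Helper14.Forms

/-!
# OTSP / SPREAD-[EMBM]

The N-part is not of plus type: add the negative of its anisotropic plane and a hyperbolic
space of dimension `2 (c - 1)`.  The generic half (`embOut_of_extra`: orthogonal sum with any
nondegenerate extra space, `φ = g ⊕ 1`) is reusable.
-/

set_option autoImplicit false
open Matrix

namespace Cfsg.Agent.Lib.Helper27.OTSP

open Cfsg.Agent.Lib.Helper40.OTSP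

universe u

section generic

variable {F : Type u} [Field F] {α β : Type}

/-- orthogonal sum of two quadratic forms on a sum index type -/
noncomputable def sumQF (Q₁ : QuadraticForm F (α → F)) (Q₂ : QuadraticForm F (β → F)) :
    QuadraticForm F (α ⊕ β → F) :=
  Q₁.comp (LinearMap.funLeft F F Sum.inl) + Q₂.comp (LinearMap.funLeft F F Sum.inr)

theorem sumQF_apply (Q₁ : QuadraticForm F (α → F)) (Q₂ : QuadraticForm F (β → F))
    (w : α ⊕ β → F) : sumQF Q₁ Q₂ w = Q₁ (w ∘ Sum.inl) + Q₂ (w ∘ Sum.inr) := rfl

theorem sumQF_polar (Q₁ : QuadraticForm F (α → F)) (Q₂ : QuadraticForm F (β → F))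
    (w w' : α ⊕ β → F) :
    QuadraticMap.polar (sumQF Q₁ Q₂) w w' =
      QuadraticMap.polar Q₁ (w ∘ Sum.inl) (w' ∘ Sum.inl) +
        QuadraticMap.polar Q₂ (w ∘ Sum.inr) (w' ∘ Sum.inr) := by
  simp only [QuadraticMap.polar, sumQF_apply]
  have h1 : (w + w') ∘ Sum.inl = w ∘ Sum.inl + w' ∘ (Sum.inl : α → α ⊕ β) := rfl
  have h2 : (w + w') ∘ Sum.inr = w ∘ Sum.inr + w' ∘ (Sum.inr : β → α ⊕ β) := rfl
  rw [h1, h2]; ring

theorem sumQF_nondeg (Q₁ : QuadraticForm F (α → F)) (Q₂ : QuadraticForm F (β → F))
    (h₁ : (QuadraticMap.polarBilin Q₁).Nondegenerate)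
    (h₂ : (QuadraticMap.polarBilin Q₂).Nondegenerate) :
    (QuadraticMap.polarBilin (sumQF Q₁ Q₂)).Nondegenerate := by
  have key : ∀ w : α ⊕ β → F, (∀ w', QuadraticMap.polar (sumQF Q₁ Q₂) w w' = 0) → w = 0 := by
    intro w hw
    have e1 : w ∘ Sum.inl = 0 := by
      apply h₁.1
      intro v
      have := hw (Sum.elim v 0)
      rw [sumQF_polar] at this
      simp only [Sum.elim_comp_inl, Sum.elim_comp_inr, QuadraticMap.polar_zero_right,
        add_zero] at this
      exact this
    have e2 : w ∘ Sum.inr = 0 := by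
      apply h₂.1
      intro v
      have := hw (Sum.elim 0 v)
      rw [sumQF_polar] at this
      simp only [Sum.elim_comp_inl, Sum.elim_comp_inr, QuadraticMap.polar_zero_right,
        zero_add] at this
      exact this
    funext i
    rcases i with i | i
    · exact congrFun e1 i
    · exact congrFun e2 i
  constructor
  · intro x hx
    exact key x (fun w' => hx w')
  · intro x hx
    exact key x (fun w' => by rw [QuadraticMap.polar_comm]; exact hx w')

/-- extension by zero -/
noncomputable def embL (F : Type u) [Field F] (α β : Type) : (α → F) →ₗ[F] (α ⊕ β → F) where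
  toFun v := Sum.elim v 0
  map_add' v v' := by funext i; rcases i with i | i <;> simp
  map_smul' c v := by funext i; rcases i with i | i <;> simp

theorem embL_apply (v : α → F) : embL F α β v = Sum.elim v 0 := rfl

theorem embL_inj : Function.Injective (embL F α β) := fun v v' h => by
  funext i; exact congrFun h (Sum.inl i)

theorem fromBlocks_mulVec_inl [Fintype α] [Fintype β] [DecidableEq β] (g : Matrix α α F)
    (w : α ⊕ β → F) :
    (Matrix.fromBlocks g 0 0 (1 : Matrix β β F) *ᵥ w) ∘ Sum.inl = g *ᵥ (w ∘ Sum.inl) := by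
  rw [Matrix.fromBlocks_mulVec]
  simp

theorem fromBlocks_mulVec_inr [Fintype α] [Fintype β] [DecidableEq β] (g : Matrix α α F)
    (w : α ⊕ β → F) :
    (Matrix.fromBlocks g 0 0 (1 : Matrix β β F) *ᵥ w) ∘ Sum.inr = w ∘ Sum.inr := by
  rw [Matrix.fromBlocks_mulVec]
  simp

theorem fromBlocks_pow_one [Fintype α] [DecidableEq α] [Fintype β] [DecidableEq β]
    (g : Matrix α α F) (k : ℕ) :
    Matrix.fromBlocks g 0 0 (1 : Matrix β β F) ^ k = Matrix.fromBlocks (g ^ k) 0 0 1 := by
  induction k with
  | zero => simp [Matrix.fromBlocks_one]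
  | succ k ih => rw [pow_succ, ih, Matrix.fromBlocks_multiply]; simp [pow_succ]

/-- **generic embedding**: orthogonal sum of the N-part with any nondegenerate space of
dimension `2 c`, provided the sum has a totally singular subspace of half dimension. -/
theorem embOut_of_extra {n r c : ℕ} (Qs : QuadraticForm F (Fin n ⊕ Fin n → F))
    (g : Matrix (Fin n ⊕ Fin n) (Fin n ⊕ Fin n) F) (hN : NData n r Qs g)
    (β : Type) [Fintype β] [DecidableEq β] (Q₂ : QuadraticForm F (β → F))
    (hβ : Fintype.card β = 2 * c) (h₂ : (QuadraticMap.polarBilin Q₂).Nondegenerate)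
    (hT : ∃ T : Submodule F ((Fin n ⊕ Fin n) ⊕ β → F),
      (∀ w ∈ T, sumQF Qs Q₂ w = 0) ∧ Module.finrank F T = n + c) :
    EmbOut n r (n + c) Qs g := by
  have hmap : ∀ w : (Fin n ⊕ Fin n) ⊕ β → F,
      (Matrix.toLin' (Matrix.fromBlocks g 0 0 (1 : Matrix β β F)) - 1) w =
        embL F _ β (g *ᵥ (w ∘ Sum.inl) - w ∘ Sum.inl) := by
    intro w
    rw [LinearMap.sub_apply, Matrix.toLin'_apply, Module.End.one_apply, embL_apply]
    funext i
    rcases i with i | i
    · have := congrFun (fromBlocks_mulVec_inl (β := β) g w) i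
      simp only [Function.comp_apply] at this
      simp [this]
    · have := congrFun (fromBlocks_mulVec_inr (β := β) g w) i
      simp only [Function.comp_apply] at this
      simp [this]
  have hsurj : ∀ v : Fin n ⊕ Fin n → F, ∃ u : Fin n ⊕ Fin n → F, g *ᵥ u - u = v := by
    have hinj : Function.Injective
        ⇑((Matrix.toLin' g - 1 : (Fin n ⊕ Fin n → F) →ₗ[F] (Fin n ⊕ Fin n → F))) := by
      rw [injective_iff_map_eq_zero]
      intro u hu
      rw [LinearMap.sub_apply, Matrix.toLin'_apply, Module.End.one_apply, sub_eq_zero] at hu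
      exact hN.fpf u hu
    have hs := LinearMap.injective_iff_surjective.mp hinj
    intro v
    obtain ⟨u, hu⟩ := hs v
    refine ⟨u, ?_⟩
    rw [LinearMap.sub_apply, Matrix.toLin'_apply, Module.End.one_apply] at hu
    exact hu
  have hrange : LinearMap.range (Matrix.toLin' (Matrix.fromBlocks g 0 0 (1 : Matrix β β F)) - 1)
      = LinearMap.range (embL F (Fin n ⊕ Fin n) β) := by
    ext w
    constructor
    · rintro ⟨u, rfl⟩
      exact ⟨_, (hmap u).symm⟩
    · rintro ⟨v, rfl⟩
      obtain ⟨u, hu⟩ := hsurj v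
      refine ⟨embL F _ β u, ?_⟩
      rw [hmap]
      have : (embL F (Fin n ⊕ Fin n) β u) ∘ Sum.inl = u := rfl
      rw [this, hu]
  refine ⟨(Fin n ⊕ Fin n) ⊕ β, inferInstance, inferInstance, sumQF Qs Q₂,
    Matrix.fromBlocks g 0 0 1, ?_, sumQF_nondeg Qs Q₂ hN.nondeg h₂, hT, ?_, ?_, ?_, ?_⟩
  · simp only [Fintype.card_sum, Fintype.card_fin, hβ]; ring
  · intro v
    rw [sumQF_apply, sumQF_apply, fromBlocks_mulVec_inl, fromBlocks_mulVec_inr, hN.isom]
  · rw [fromBlocks_pow_one, hN.pow, Matrix.fromBlocks_one]
  · rw [hrange, LinearMap.finrank_range_of_inj embL_inj, Module.finrank_fintype_fun_eq_card]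
    simp only [Fintype.card_sum, Fintype.card_fin]; ring
  · intro L' hL' hinv hts
    refine ⟨L'.comap (embL F _ β), ?_, ?_, ?_⟩
    · rintro _ ⟨v, hv, rfl⟩
      rw [Submodule.mem_comap]
      have hv' : embL F _ β v ∈ L' := hv
      have e : embL F _ β (Matrix.toLin' g v) =
          Matrix.toLin' (Matrix.fromBlocks g 0 0 (1 : Matrix β β F)) (embL F _ β v) := by
        rw [Matrix.toLin'_apply, Matrix.toLin'_apply, embL_apply, embL_apply]
        funext i
        rcases i with i | i
        · have := congrFun (fromBlocks_mulVec_inl (β := β) g (Sum.elim v 0)) i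
          simp only [Function.comp_apply, Sum.elim_comp_inl] at this
          simp [this]
        · have := congrFun (fromBlocks_mulVec_inr (β := β) g (Sum.elim v 0)) i
          simp only [Function.comp_apply] at this
          simp [this]
      rw [e]
      exact hinv (Submodule.mem_map_of_mem hv')
    · intro v hv
      have hv' : embL F _ β v ∈ L' := hv
      have := hts _ hv'
      rw [sumQF_apply, embL_apply] at this
      simpa using this
    · have h1 := (Submodule.equivMapOfInjective (embL F (Fin n ⊕ Fin n) β) embL_inj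
        (L'.comap (embL F _ β))).finrank_eq
      rw [h1, Submodule.map_comap_eq, ← hrange, inf_eq_right.mpr hL']

end generic

section specific

variable {F : Type u} [Field F]

theorem polar_sum_smul_left {V : Type*} [AddCommGroup V] [Module F V] (Q : QuadraticForm F V)
    {k : ℕ} (e : Fin k → V) (a : Fin k → F) (z : V) :
    QuadraticMap.polar Q (∑ i, a i • e i) z = ∑ i, a i * QuadraticMap.polar Q (e i) z := by
  have h : QuadraticMap.polarBilin Q (∑ i, a i • e i) z =
      ∑ i, a i • QuadraticMap.polarBilin Q (e i) z := by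
    simp only [map_sum, map_smul, LinearMap.sum_apply, LinearMap.smul_apply]
  simpa only [QuadraticMap.polarBilin_apply_apply, smul_eq_mul] using h

/-- the plane map `a ↦ a 0 • x + a 1 • y` -/
noncomputable def planeL {V : Type*} [AddCommGroup V] [Module F V] (x y : V) :
    (Fin 2 → F) →ₗ[F] V :=
  (LinearMap.proj (0 : Fin 2)).smulRight x + (LinearMap.proj (1 : Fin 2)).smulRight y

theorem planeL_apply {V : Type*} [AddCommGroup V] [Module F V] (x y : V) (a : Fin 2 → F) :
    planeL x y a = a 0 • x + a 1 • y := by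
  simp [planeL]

/-- the negative of the restriction of `Q` to the plane `⟨x, y⟩`, as a form on `F²` -/
noncomputable def negPlane {V : Type*} [AddCommGroup V] [Module F V] (Q : QuadraticForm F V)
    (x y : V) : QuadraticForm F (Fin 2 → F) := -(Q.comp (planeL x y))

theorem negPlane_apply {V : Type*} [AddCommGroup V] [Module F V] (Q : QuadraticForm F V)
    (x y : V) (a : Fin 2 → F) : negPlane Q x y a = -Q (planeL x y a) := rfl

theorem negPlane_polar {V : Type*} [AddCommGroup V] [Module F V] (Q : QuadraticForm F V)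
    (x y : V) (a b : Fin 2 → F) :
    QuadraticMap.polar (negPlane Q x y) a b =
      -QuadraticMap.polar Q (planeL x y a) (planeL x y b) := by
  simp only [QuadraticMap.polar, negPlane_apply, map_add]
  ring

theorem negPlane_nondeg {V : Type*} [AddCommGroup V] [Module F V] (Q : QuadraticForm F V)
    (x y : V) (hx : Q x = 1) (hxy : QuadraticMap.polar Q x y = 1)
    (hani : ∀ t : F, t ^ 2 + t + Q y ≠ 0) :
    (QuadraticMap.polarBilin (negPlane Q x y)).Nondegenerate := by
  have key : ∀ a : Fin 2 → F, (∀ b, QuadraticMap.polar (negPlane Q x y) a b = 0) → a = 0 := by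
    intro a ha
    have e0 : planeL (F := F) x y (Pi.single 0 1) = x := by
      rw [planeL_apply]; simp
    have e1 : planeL (F := F) x y (Pi.single 1 1) = y := by
      rw [planeL_apply]; simp
    have h0 := ha (Pi.single 0 1)
    have h1 := ha (Pi.single 1 1)
    rw [negPlane_polar, e0, planeL_apply, neg_eq_zero, QuadraticMap.polar_add_left,
      QuadraticMap.polar_smul_left, QuadraticMap.polar_smul_left, QuadraticMap.polar_self,
      QuadraticMap.polar_comm Q y x, hx, hxy] at h0
    rw [negPlane_polar, e1, planeL_apply, neg_eq_zero, QuadraticMap.polar_add_left,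
      QuadraticMap.polar_smul_left, QuadraticMap.polar_smul_left, QuadraticMap.polar_self,
      hxy] at h1
    simp only [smul_eq_mul, nsmul_eq_mul, Nat.cast_ofNat, mul_one] at h0 h1
    -- h0 : a 0 * 2 + a 1 = 0 ; h1 : a 0 + a 1 * (2 * Q y) = 0
    have ha1 : a 1 = -(2 * a 0) := by linear_combination h0
    have hz : a 0 * (1 - 4 * Q y) = 0 := by
      rw [ha1] at h1
      linear_combination h1
    have ha0 : a 0 = 0 := by
      by_contra hne
      have h4 : 4 * Q y = 1 := by
        have := (mul_eq_zero.mp hz).resolve_left hne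
        linear_combination -this
      apply hani (-(2 * Q y))
      linear_combination (Q y) * h4
    funext i
    fin_cases i
    · exact ha0
    · show a 1 = 0
      rw [ha1, ha0]; ring
  constructor
  · intro a ha
    exact key a (fun b => ha b)
  · intro a ha
    exact key a (fun b => by rw [QuadraticMap.polar_comm]; exact ha b)

end specific

open Cfsg.Agent.Lib.Helper99 Cfsg.Agent.Lib.Helper14 in
/-- **SPREAD-[EMBM]** -/
theorem pkgEmbM : PkgEmbM.{u} := by
  intro F _ _ n r c Qs g hN hno hc
  classical
  obtain ⟨k, e, f, hH, hcase⟩ := witt Qs hN.nondeg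
  have hfr : Module.finrank F (Fin n ⊕ Fin n → F) = 2 * n := by
    rw [Module.finrank_fintype_fun_eq_card]
    simp only [Fintype.card_sum, Fintype.card_fin]; ring
  rcases hcase with ⟨b, hbe, hbf⟩ | ⟨x, b, -⟩ |
    ⟨x, y, b, hx, hxy, hani, hxe, hye, hbe, hbf, hbx, hby⟩
  · exfalso
    have hk : k + k = 2 * n := by
      rw [← hfr, Module.finrank_eq_card_basis b]
      simp only [Fintype.card_sum, Fintype.card_fin]
    apply hno
    refine ⟨Submodule.span F (Set.range e), ?_, ?_⟩
    · intro w hw
      obtain ⟨a, rfl⟩ := (Submodule.mem_span_range_iff_exists_fun F).mp hw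
      exact sing_sum Qs Finset.univ e a (fun i => (hH.1 i).1) (fun i j => (hH.2.2 i j).1)
    · have hli : LinearIndependent F e := by
        have h1 := b.linearIndependent.comp Sum.inl Sum.inl_injective
        have h2 : (⇑b ∘ Sum.inl) = e := by funext i; exact hbe i
        rwa [h2] at h1
      rw [finrank_span_eq_card hli, Fintype.card_fin]
      omega
  · exfalso
    have hk : k + k + 1 = 2 * n := by
      rw [← hfr, Module.finrank_eq_card_basis b]
      simp only [Fintype.card_sum, Fintype.card_fin, Fintype.card_unit]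
    omega
  · have hk : k + 1 = n := by
      have : k + k + 2 = 2 * n := by
        rw [← hfr, Module.finrank_eq_card_basis b]
        simp only [Fintype.card_sum, Fintype.card_fin]
      omega
    -- the extra space
    have hβ : Fintype.card (Fin 2 ⊕ (Fin (c - 1) ⊕ Fin (c - 1))) = 2 * c := by
      simp only [Fintype.card_sum, Fintype.card_fin]; omega
    have h₂ : (QuadraticMap.polarBilin
        (sumQF (negPlane Qs x y) (plusQF (c - 1) F))).Nondegenerate :=
      sumQF_nondeg _ _ (negPlane_nondeg Qs x y hx hxy hani) (plusQF_nondegenerate (c - 1) F)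
    refine embOut_of_extra Qs g hN (Fin 2 ⊕ (Fin (c - 1) ⊕ Fin (c - 1)))
      (sumQF (negPlane Qs x y) (plusQF (c - 1) F)) hβ h₂ ?_
    -- the totally singular subspace
    let A : (Fin k ⊕ (Fin 2 ⊕ Fin (c - 1)) → F) →ₗ[F] (Fin n ⊕ Fin n → F) :=
      (∑ i : Fin k, (LinearMap.proj (Sum.inl i)).smulRight (e i)) +
        (planeL x y).comp (LinearMap.funLeft F F (Sum.inr ∘ Sum.inl))
    have hA : ∀ p, A p = ∑ i : Fin k, p (Sum.inl i) • e i +
        planeL x y (p ∘ Sum.inr ∘ Sum.inl) := by
      intro p
      simp only [A, LinearMap.add_apply, LinearMap.sum_apply, LinearMap.smulRight_apply,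
        LinearMap.proj_apply, LinearMap.comp_apply]
      rfl
    let B : (Fin k ⊕ (Fin 2 ⊕ Fin (c - 1)) → F) →ₗ[F]
        (Fin 2 ⊕ (Fin (c - 1) ⊕ Fin (c - 1)) → F) :=
      LinearMap.pi (Sum.elim (fun a : Fin 2 => LinearMap.proj (Sum.inr (Sum.inl a)))
        (Sum.elim (fun h : Fin (c - 1) => LinearMap.proj (Sum.inr (Sum.inr h)))
          (fun _ => 0)))
    have hB1 : ∀ p, B p ∘ Sum.inl = p ∘ Sum.inr ∘ Sum.inl := fun p => rfl
    have hB2 : ∀ p, B p ∘ Sum.inr = Sum.elim (p ∘ Sum.inr ∘ Sum.inr) 0 := by
      intro p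
      funext j
      rcases j with j | j <;> rfl
    let Θ : (Fin k ⊕ (Fin 2 ⊕ Fin (c - 1)) → F) →ₗ[F]
        ((Fin n ⊕ Fin n) ⊕ (Fin 2 ⊕ (Fin (c - 1) ⊕ Fin (c - 1))) → F) :=
      { toFun := fun p => Sum.elim (A p) (B p)
        map_add' := fun p p' => by
          funext i; rcases i with i | i <;> simp
        map_smul' := fun t p => by
          funext i; rcases i with i | i <;> simp }
    have hΘ1 : ∀ p, Θ p ∘ Sum.inl = A p := fun p => rfl
    have hΘ2 : ∀ p, Θ p ∘ Sum.inr = B p := fun p => rfl
    have hinj : Function.Injective Θ := by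
      rw [injective_iff_map_eq_zero]
      intro p hp
      have hBp : B p = 0 := by rw [← hΘ2, hp]; rfl
      have hAp : A p = 0 := by rw [← hΘ1, hp]; rfl
      have h1 : ∀ a : Fin 2, p (Sum.inr (Sum.inl a)) = 0 := fun a =>
        congrFun hBp (Sum.inl a)
      have h2 : ∀ h : Fin (c - 1), p (Sum.inr (Sum.inr h)) = 0 := fun h =>
        congrFun hBp (Sum.inr (Sum.inl h))
      have h3 : ∀ j : Fin k, p (Sum.inl j) = 0 := by
        intro j
        have hz : p ∘ Sum.inr ∘ Sum.inl = 0 := by funext a; exact h1 a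
        rw [hA, hz, map_zero, add_zero] at hAp
        have := congrArg (fun v => QuadraticMap.polar Qs v (f j)) hAp
        simp only [polar_sum_smul_left, hH.2.1, QuadraticMap.polar_zero_left, mul_ite, mul_one,
          mul_zero, Finset.sum_ite_eq', Finset.mem_univ, if_true] at this
        exact this
      funext i
      rcases i with i | (i | i)
      · exact h3 i
      · exact h1 i
      · exact h2 i
    refine ⟨LinearMap.range Θ, ?_, ?_⟩
    · rintro _ ⟨p, rfl⟩
      rw [sumQF_apply, hΘ1, hΘ2, sumQF_apply, hB1, hB2, negPlane_apply, hA, plusQF_coe]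
      have hS : Qs (∑ i : Fin k, p (Sum.inl i) • e i) = 0 :=
        sing_sum Qs Finset.univ e (fun i => p (Sum.inl i)) (fun i => (hH.1 i).1)
          (fun i j => (hH.2.2 i j).1)
      have hpol : QuadraticMap.polar Qs (∑ i : Fin k, p (Sum.inl i) • e i)
          (planeL x y (p ∘ Sum.inr ∘ Sum.inl)) = 0 := by
        rw [planeL_apply, QuadraticMap.polar_add_right, QuadraticMap.polar_smul_right,
          QuadraticMap.polar_smul_right, polar_sum_smul_left, polar_sum_smul_left]
        have hex : ∀ i, QuadraticMap.polar Qs (e i) x = 0 := fun i => by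
          rw [QuadraticMap.polar_comm]; exact (hxe i).1
        have hey : ∀ i, QuadraticMap.polar Qs (e i) y = 0 := fun i => by
          rw [QuadraticMap.polar_comm]; exact (hye i).1
        simp [hex, hey]
      have hadd := QuadraticMap.map_add Qs (∑ i : Fin k, p (Sum.inl i) • e i)
        (planeL x y (p ∘ Sum.inr ∘ Sum.inl))
      rw [hadd, hS, hpol]
      simp [Cfsg.quadFormPlus]
    · rw [LinearMap.finrank_range_of_inj hinj, Module.finrank_fintype_fun_eq_card]
      simp only [Fintype.card_sum, Fintype.card_fin]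
      omega

end Cfsg.Agent.Lib.Helper27.OTSP
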