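import Mathlib
import Cfsg.Agent.Lib.Helper27.OTSP.EmbM

/-!
# OTSP / SPREAD-[EMBP]  (from the generic `embOut_of_extra`)
-/

set_option autoImplicit false
open Matrix

namespace Cfsg.Agent.Lib.Helper27.OTSP

open Cfsg.Agent.Lib.Helper40.OTSP

universe u

open Cfsg.Agent.Lib.Helper14 in
/-- **SPREAD-[EMBP]** -/
theorem pkgEmbP : PkgEmbP.{u} := by
  intro F _ _ n r c Qs g hN hT
  obtain ⟨Ts, hTs, hfr⟩ := hT
  classical
  have hβ : Fintype.card (Fin c ⊕ Fin c) = 2 * c := by
    simp only [Fintype.card_sum, Fintype.card_fin]; ring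
  refine embOut_of_extra Qs g hN (Fin c ⊕ Fin c) (plusQF c F) hβ (plusQF_nondegenerate c F) ?_
  let Θ : (Ts × (Fin c → F)) →ₗ[F] ((Fin n ⊕ Fin n) ⊕ (Fin c ⊕ Fin c) → F) :=
    { toFun := fun p => Sum.elim (p.1 : Fin n ⊕ Fin n → F) (Sum.elim p.2 0)
      map_add' := fun p p' => by
        funext i; rcases i with i | (i | i) <;> simp
      map_smul' := fun t p => by
        funext i; rcases i with i | (i | i) <;> simp }
  have hΘ : ∀ p, Θ p = Sum.elim (p.1 : Fin n ⊕ Fin n → F) (Sum.elim p.2 0) := fun p => rfl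
  have hinj : Function.Injective Θ := by
    rw [injective_iff_map_eq_zero]
    intro p hp
    rw [hΘ] at hp
    have h1 : p.1 = 0 := by
      apply Subtype.ext
      funext i
      exact congrFun hp (Sum.inl i)
    have h2 : p.2 = 0 := by
      funext j
      exact congrFun hp (Sum.inr (Sum.inl j))
    exact Prod.ext h1 h2
  refine ⟨LinearMap.range Θ, ?_, ?_⟩
  · rintro _ ⟨p, rfl⟩
    rw [sumQF_apply, hΘ, Sum.elim_comp_inl, Sum.elim_comp_inr, hTs _ p.1.2, plusQF_coe]
    simp [Cfsg.quadFormPlus]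
  · rw [LinearMap.finrank_range_of_inj hinj, Module.finrank_prod, hfr,
      Module.finrank_fintype_fun_eq_card, Fintype.card_fin]

end Cfsg.Agent.Lib.Helper27.OTSP
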